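-- Team project OELM (S5990), package [EMBM] (helper13): an isometry `y` of the hyperbolic part
-- `Σ xᵢ yᵢ` extended by the identity on the anisotropic plane, `x = fromBlocks y 0 0 1`.
import Mathlib
import Cfsg.Agent.Lib.Helper58.OElm.Defs

set_option autoImplicit false
open scoped MatrixGroups
open Matrix

namespace Cfsg.Agent.Lib.Helper13.OElm

open Cfsg.Agent.Lib.Helper23.OHyp Cfsg.Agent.Lib.Helper64.OParM Cfsg.Agent.Lib.Helper58.OElm

universe u

section

variable {F : Type u} [Field F] {k : ℕ}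

/-- `g ↦ fromBlocks g 0 0 1` as a monoid homomorphism. -/
def embHom (F : Type u) [Field F] (k : ℕ) : GL (Fin k ⊕ Fin k) F →* GL (MI k) F where
  toFun g := ⟨Matrix.fromBlocks (g : Matrix (Fin k ⊕ Fin k) (Fin k ⊕ Fin k) F) 0 0 1,
    Matrix.fromBlocks ((g⁻¹ : GL (Fin k ⊕ Fin k) F) : Matrix (Fin k ⊕ Fin k) (Fin k ⊕ Fin k) F)
      0 0 1,
    by
      rw [Matrix.fromBlocks_multiply]
      simp only [Matrix.mul_zero, Matrix.zero_mul, add_zero, zero_add, Matrix.mul_one]
      rw [← Units.val_mul, mul_inv_cancel, Units.val_one, Matrix.fromBlocks_one],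
    by
      rw [Matrix.fromBlocks_multiply]
      simp only [Matrix.mul_zero, Matrix.zero_mul, add_zero, zero_add, Matrix.mul_one]
      rw [← Units.val_mul, inv_mul_cancel, Units.val_one, Matrix.fromBlocks_one]⟩
  map_one' := by
    apply Units.ext
    show Matrix.fromBlocks ((1 : GL (Fin k ⊕ Fin k) F) : Matrix (Fin k ⊕ Fin k) (Fin k ⊕ Fin k) F)
      0 0 1 = 1
    rw [Units.val_one, Matrix.fromBlocks_one]
  map_mul' g h := by
    apply Units.ext
    show Matrix.fromBlocks ((g * h : GL (Fin k ⊕ Fin k) F) :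
        Matrix (Fin k ⊕ Fin k) (Fin k ⊕ Fin k) F) 0 0 1
      = Matrix.fromBlocks (g : Matrix (Fin k ⊕ Fin k) (Fin k ⊕ Fin k) F) 0 0 1
        * Matrix.fromBlocks (h : Matrix (Fin k ⊕ Fin k) (Fin k ⊕ Fin k) F) 0 0 1
    rw [Matrix.fromBlocks_multiply]
    simp only [Matrix.mul_zero, Matrix.zero_mul, add_zero, zero_add, Matrix.mul_one,
      Units.val_mul]

theorem embHom_val (g : GL (Fin k ⊕ Fin k) F) :
    ((embHom F k g : GL (MI k) F) : Matrix (MI k) (MI k) F)
      = Matrix.fromBlocks (g : Matrix (Fin k ⊕ Fin k) (Fin k ⊕ Fin k) F) 0 0 1 := rfl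

theorem embHom_injective : Function.Injective (embHom F k) := by
  intro g h hgh
  have h1 := congrArg (fun z : GL (MI k) F => (z : Matrix (MI k) (MI k) F)) hgh
  simp only [embHom_val] at h1
  rw [Matrix.fromBlocks_inj] at h1
  exact Units.ext h1.1

theorem embHom_mulVec (g : GL (Fin k ⊕ Fin k) F) (v : MI k → F) :
    ((embHom F k g : GL (MI k) F) : Matrix (MI k) (MI k) F) *ᵥ v
      = Sum.elim ((g : Matrix (Fin k ⊕ Fin k) (Fin k ⊕ Fin k) F) *ᵥ (v ∘ Sum.inl))
        (v ∘ Sum.inr) := by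
  rw [embHom_val, Matrix.fromBlocks_mulVec]
  simp only [Matrix.zero_mulVec, add_zero, zero_add, Matrix.one_mulVec]

theorem finrank_movSp_add_fixSp {ι : Type} [Fintype ι] [DecidableEq ι] (M : Matrix ι ι F) :
    Module.finrank F (movSp M) + Module.finrank F (fixSp M) = Fintype.card ι := by
  unfold movSp fixSp
  rw [LinearMap.finrank_range_add_finrank_ker, Module.finrank_pi]

theorem quadFormMinus_elim (a b : F) (p : Fin k ⊕ Fin k → F) (z : Fin 2 → F) :
    Cfsg.quadFormMinus k F a b (Sum.elim p z)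
      = Cfsg.quadFormPlus k F p + (z 0 ^ 2 + a * z 0 * z 1 + b * z 1 ^ 2) := rfl

end

/-- [EMBM] -/
theorem pkgEmbM : PkgEmbM.{u} := by
  intro F _ _ k a b y hy
  classical
  refine ⟨embHom F k y, ?_, orderOf_injective (embHom F k) embHom_injective y, ?_⟩
  · intro u _
    show Cfsg.quadFormMinus k F a b (((embHom F k y : GL (MI k) F) : Matrix (MI k) (MI k) F) *ᵥ u)
      = Cfsg.quadFormMinus k F a b u
    have hu : u = Sum.elim (u ∘ Sum.inl) (u ∘ Sum.inr) := by
      ext (i | i) <;> rfl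
    rw [embHom_mulVec, quadFormMinus_elim]
    conv_rhs => rw [hu, quadFormMinus_elim]
    have h1 : Cfsg.quadFormPlus k F
        ((y : Matrix (Fin k ⊕ Fin k) (Fin k ⊕ Fin k) F) *ᵥ (u ∘ Sum.inl))
        = Cfsg.quadFormPlus k F (u ∘ Sum.inl) := hy (u ∘ Sum.inl) (u ∘ Sum.inl)
    rw [h1]
  · -- rank–nullity on both sides
    -- the extension by zero
    let e := LinearEquiv.sumArrowLequivProdArrow (Fin k ⊕ Fin k) (Fin 2) F F
    let ι : (Fin k ⊕ Fin k → F) →ₗ[F] (MI k → F) :=
      e.symm.toLinearMap ∘ₗ LinearMap.inl F (Fin k ⊕ Fin k → F) (Fin 2 → F)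
    have hι : ∀ w, ι w = Sum.elim w 0 := by
      intro w
      ext (i | i) <;> rfl
    have hιinj : Function.Injective ι := by
      intro w w' hww'
      rw [hι, hι] at hww'
      ext i
      exact congrFun hww' (Sum.inl i)
    have hmov : ∀ u : MI k → F,
        (Matrix.toLin' ((embHom F k y : GL (MI k) F) : Matrix (MI k) (MI k) F) - 1) u
        = ι ((Matrix.toLin' (y : Matrix (Fin k ⊕ Fin k) (Fin k ⊕ Fin k) F) - 1)
          (u ∘ Sum.inl)) := by
      intro u
      rw [hι]
      simp only [LinearMap.sub_apply, Matrix.toLin'_apply, Module.End.one_apply]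
      rw [embHom_mulVec]
      ext (i | i)
      · simp
      · simp
    have hrange : movSp ((embHom F k y : GL (MI k) F) : Matrix (MI k) (MI k) F)
        = (movSp (y : Matrix (Fin k ⊕ Fin k) (Fin k ⊕ Fin k) F)).map ι := by
      ext v
      constructor
      · rintro ⟨u, rfl⟩
        exact ⟨_, ⟨u ∘ Sum.inl, rfl⟩, (hmov u).symm⟩
      · rintro ⟨_, ⟨w, rfl⟩, rfl⟩
        refine ⟨Sum.elim w 0, ?_⟩
        rw [hmov]
        rfl
    have hfr : Module.finrank F (movSp ((embHom F k y : GL (MI k) F) : Matrix (MI k) (MI k) F))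
        = Module.finrank F (movSp (y : Matrix (Fin k ⊕ Fin k) (Fin k ⊕ Fin k) F)) := by
      rw [hrange]
      exact (Submodule.equivMapOfInjective ι hιinj _).finrank_eq.symm
    have h1 := finrank_movSp_add_fixSp ((embHom F k y : GL (MI k) F) : Matrix (MI k) (MI k) F)
    have h2 := finrank_movSp_add_fixSp (y : Matrix (Fin k ⊕ Fin k) (Fin k ⊕ Fin k) F)
    rw [Fintype.card_sum, Fintype.card_sum, Fintype.card_fin, Fintype.card_fin] at h1
    rw [Fintype.card_sum, Fintype.card_fin] at h2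
    omega

end Cfsg.Agent.Lib.Helper13.OElm
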